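import Mathlib
import Cfsg.Prelude.Def_LieRecognition
import Cfsg.Agent.Invol.Dihedral

/-!
The doubly transitive rank one set-up: regularity, involutions, fixed points.
-/

set_option autoImplicit false
set_option linter.style.haveILetI false

open MulAction

namespace CfsgLib.RankOneSetup

variable {G Ω : Type*} [Group G] [MulAction G Ω] {a : Ω} {t : G} {Q : Subgroup G}
variable (hS : Cfsg.IsRankOneSetup G Ω a t Q)
include hS

local notation "D" => stabilizer G a ⊓ stabilizer G (t • a)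

theorem ne_base : t • a ≠ a := fun h => hS.not_mem h

theorem swap_smul : t • t • a = a := by rw [smul_smul, hS.mul_self, one_smul]

theorem inv_t : t⁻¹ = t := inv_eq_of_mul_eq_one_left hS.mul_self

theorem t_conj_mem_D {d : G} (hd : d ∈ D) : t * d * t⁻¹ ∈ D := by
  obtain ⟨h1, h2⟩ := Subgroup.mem_inf.1 hd
  rw [mem_stabilizer_iff] at h1 h2
  refine Subgroup.mem_inf.2 ⟨?_, ?_⟩ <;> rw [mem_stabilizer_iff, mul_smul, mul_smul, inv_t hS]
  · rw [h2, swap_smul hS]
  · rw [swap_smul hS, h1]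

theorem two_trans {b c b' c' : Ω} (h : b ≠ c) (h' : b' ≠ c') : ∃ g : G, g • b = b' ∧ g • c = c' :=
  MulAction.is_two_pretransitive_iff.1 hS.two_transitive h h'

theorem pretrans : IsPretransitive G Ω := by
  haveI := hS.two_transitive
  exact MulAction.isPretransitive_of_is_two_pretransitive

theorem smul_Q {x : G} (hx : x ∈ Q) : x • a = a := hS.le hx

/-- `G_a = Q D` -/
theorem exists_decomp {g : G} (hg : g • a = a) : ∃ q ∈ Q, ∃ d ∈ D, g = q * d := by
  have hDN : D ≤ Subgroup.normalizer (Q : Set G) := fun d hd => by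
    rw [Subgroup.mem_normalizer_iff]
    intro x
    refine ⟨fun hx => hS.conj_mem d (Subgroup.mem_inf.1 hd).1 x hx, fun hx => ?_⟩
    have := hS.conj_mem d⁻¹ (Subgroup.inv_mem _ (Subgroup.mem_inf.1 hd).1) _ hx
    simpa [mul_assoc] using this
  have hg' : g ∈ ((Q ⊔ D : Subgroup G) : Set G) := by
    rw [SetLike.mem_coe, hS.sup_eq]; exact hg
  rw [Subgroup.coe_mul_of_right_le_normalizer_left _ _ hDN] at hg'
  obtain ⟨q, hq, d, hd, rfl⟩ := hg'
  exact ⟨q, hq, d, hd, rfl⟩

theorem exists_reg {b : Ω} (hb : b ≠ a) : ∃ x ∈ Q, x • (t • a) = b := by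
  obtain ⟨g, hga, hgb⟩ := two_trans hS (ne_base hS).symm hb.symm
  obtain ⟨q, hq, d, hd, rfl⟩ := exists_decomp hS hga
  refine ⟨q, hq, ?_⟩
  rw [← hgb, mul_smul, show d • (t • a) = t • a from (Subgroup.mem_inf.1 hd).2]

theorem reg_unique {x y : G} (hx : x ∈ Q) (hy : y ∈ Q) (h : x • (t • a) = y • (t • a)) : x = y := by
  have h1 : y⁻¹ * x ∈ Q ⊓ stabilizer G (t • a) :=
    Subgroup.mem_inf.2 ⟨Q.mul_mem (Q.inv_mem hy) hx, by rw [mem_stabilizer_iff, mul_smul, h, inv_smul_smul]⟩
  rw [hS.inf_eq_bot, Subgroup.mem_bot, inv_mul_eq_one] at h1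
  exact h1.symm

/-- A non-identity element of `Q` fixes only `a`. -/
theorem eq_base_of_fixed {x : G} (hx : x ∈ Q) (h1 : x ≠ 1) {b : Ω} (hb : x • b = b) : b = a := by
  by_contra hba
  obtain ⟨y, hy, rfl⟩ := exists_reg hS hba
  apply h1
  have h2 := reg_unique hS (Q.mul_mem hx hy) hy (by rw [mul_smul, hb])
  exact mul_eq_right.1 h2

/-- The bijection `Q ∪ {∞} → Ω`. -/
theorem bijective_option : Function.Bijective (fun o : Option Q => o.elim a (fun x => (x : G) • (t • a))) := by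
  constructor
  · have hne : ∀ x : Q, (x : G) • (t • a) ≠ a := fun x h => by
      refine ne_base hS ?_
      have h1 := congrArg (fun b => (x : G)⁻¹ • b) h
      simp only [inv_smul_smul] at h1
      rw [h1]
      exact smul_Q hS (Q.inv_mem x.2)
    rintro (_ | x) (_ | y) h
    · rfl
    · exact absurd h.symm (hne y)
    · exact absurd h (hne x)
    · exact congrArg some (Subtype.ext (reg_unique hS x.2 y.2 h))
  · intro b
    by_cases hb : b = a
    · exact ⟨none, hb.symm⟩
    · obtain ⟨x, hx, hxb⟩ := exists_reg hS hb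
      exact ⟨some ⟨x, hx⟩, hxb⟩

variable [Finite G]

theorem finite_points : Finite Ω := Finite.of_surjective _ (bijective_option hS).2

theorem card_points : Nat.card Ω = Nat.card Q + 1 := by
  rw [← Nat.card_congr (Equiv.ofBijective _ (bijective_option hS)), Finite.card_option]

omit [Finite G] in
theorem card_stab : Nat.card (stabilizer G a) = Nat.card Q * Nat.card (D : Subgroup G) := by
  rw [← Nat.card_prod]
  refine (Nat.card_eq_of_bijective
    (fun p : Q × (D : Subgroup G) => (⟨p.1 * p.2, mul_mem (hS.le p.1.2) (Subgroup.mem_inf.1 p.2.2).1⟩ : stabilizer G a))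
    ⟨?_, ?_⟩).symm
  · rintro ⟨x, d⟩ ⟨y, e⟩ h
    have h1 : (x : G) * d = y * e := congrArg Subtype.val h
    have h2 : (x : G) = y := by
      refine reg_unique hS x.2 y.2 ?_
      have := congrArg (fun g : G => g • (t • a)) h1
      simp only [mul_smul] at this
      rwa [show (d : G) • t • a = t • a from (Subgroup.mem_inf.1 d.2).2,
        show (e : G) • t • a = t • a from (Subgroup.mem_inf.1 e.2).2] at this
    rw [h2] at h1
    exact Prod.ext (Subtype.ext h2) (Subtype.ext (mul_left_cancel h1))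
  · rintro ⟨g, hg⟩
    obtain ⟨q, hq, d, hd, rfl⟩ := exists_decomp hS hg
    exact ⟨(⟨q, hq⟩, ⟨d, hd⟩), rfl⟩

theorem card_group : Nat.card G = Nat.card Q * Nat.card (D : Subgroup G) * (Nat.card Q + 1) := by
  haveI := pretrans hS
  rw [← Subgroup.card_mul_index (stabilizer G a), index_stabilizer_of_transitive, card_stab hS, card_points hS]

theorem one_lt_card_Q : 1 < Nat.card Q := by
  have := Nat.card_pos (α := Q)
  obtain ⟨k, hk⟩ := hS.even_card
  omega

omit [Finite G] in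
theorem eq_one_of_sq_D {d : G} (hd : d ∈ D) (h : d * d = 1) : d = 1 := by
  have h1 : orderOf d ∣ 2 := orderOf_dvd_of_pow_eq_one (by rw [pow_two, h])
  rcases (Nat.dvd_prime Nat.prime_two).1 h1 with h3 | h3
  · exact orderOf_eq_one_iff.1 h3
  · exfalso
    have h2 := Subgroup.orderOf_dvd_natCard (D : Subgroup G) hd
    rw [h3] at h2
    exact Nat.not_even_iff_odd.2 hS.odd_card (even_iff_two_dvd.2 h2)

omit [Finite G] in
theorem involution_mem_Q {s : G} (hs : s • a = a) (h2 : s * s = 1) : s ∈ Q := by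
  obtain ⟨q, hq, d, hd, rfl⟩ := exists_decomp hS hs
  have hdd : d * d = 1 := by
    have h1 : q * (d * q * d⁻¹) * (d * d) = 1 := by rw [← h2]; group
    have h3 : d * d ∈ Q := by
      rw [eq_inv_of_mul_eq_one_right h1]
      exact Q.inv_mem (Q.mul_mem hq (hS.conj_mem d (Subgroup.mem_inf.1 hd).1 q hq))
    have h4 : d * d ∈ Q ⊓ stabilizer G (t • a) :=
      Subgroup.mem_inf.2 ⟨h3, mul_mem (Subgroup.mem_inf.1 hd).2 (Subgroup.mem_inf.1 hd).2⟩
    rw [hS.inf_eq_bot] at h4
    exact Subgroup.mem_bot.1 h4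
  rw [eq_one_of_sq_D hS hd hdd, mul_one]
  exact hq

omit [Finite G] in
theorem involution_fixed_unique {s : G} (hs : s • a = a) (h1 : s ≠ 1) (h2 : s * s = 1) {b : Ω} (hb : s • b = b) :
    b = a :=
  eq_base_of_fixed hS (involution_mem_Q hS hs h2) h1 hb

theorem exists_involution_base : ∃ s : G, s • a = a ∧ s ≠ 1 ∧ s * s = 1 := by
  haveI : Fact (Nat.Prime 2) := ⟨Nat.prime_two⟩
  obtain ⟨x, hx⟩ := exists_prime_orderOf_dvd_card' (G := Q) 2 (even_iff_two_dvd.1 hS.even_card)
  have hx' : orderOf (x : G) = 2 := by rw [Subgroup.orderOf_coe, hx]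
  exact ⟨x, smul_Q hS x.2, CfsgLib.Invol.ne_one_of_orderOf hx', CfsgLib.Invol.mul_self_of_orderOf hx'⟩

theorem odd_product {s u : G} (hs : s • a = a) (hs1 : s ≠ 1) (hs2 : s * s = 1) (hu : u • a ≠ a)
    (hu2 : u * u = 1) : Odd (orderOf (s * u)) := by
  by_contra h
  obtain ⟨hj, hjs, hju⟩ := CfsgLib.Invol.half_pow hs2 hu2 (Nat.not_odd_iff_even.1 h)
  set j := (s * u) ^ (orderOf (s * u) / 2)
  have hja : j • a = a := involution_fixed_unique hS hs hs1 hs2 (by rw [← mul_smul, ← hjs.eq, mul_smul, hs])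
  exact hu (involution_fixed_unique hS hja (CfsgLib.Invol.ne_one_of_orderOf hj)
    (CfsgLib.Invol.mul_self_of_orderOf hj) (by rw [← mul_smul, hju.eq, mul_smul, hja]))

theorem isConj_t {u : G} (hu1 : u ≠ 1) (hu2 : u * u = 1) : IsConj t u := by
  obtain ⟨s, hs, hs1, hs2⟩ := exists_involution_base hS
  have key : ∀ v : G, v * v = 1 → v • a ≠ a → IsConj s v := fun v hv2 hv =>
    CfsgLib.Invol.isConj_of_odd hs2 hv2 (odd_product hS hs hs1 hs2 hv hv2)
  by_cases hu : u • a = a
  · exact (CfsgLib.Invol.isConj_of_odd hu2 hS.mul_self (odd_product hS hu hu1 hu2 (ne_base hS) hS.mul_self)).symm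
  · exact (key t hS.mul_self (ne_base hS)).symm.trans (key u hu2 hu)

/-- Every involution fixes exactly one point. -/
theorem existsUnique_fixed {u : G} (hu1 : u ≠ 1) (hu2 : u * u = 1) : ∃! b : Ω, u • b = b := by
  obtain ⟨s, hs, hs1, hs2⟩ := exists_involution_base hS
  obtain ⟨g, hg⟩ := isConj_iff.1 ((isConj_t hS hs1 hs2).symm.trans (isConj_t hS hu1 hu2))
  refine ⟨g • a, ?_, fun b hb => ?_⟩
  · show u • g • a = g • a
    rw [← hg, mul_smul, mul_smul, inv_smul_smul, hs]
  · have h1 : s • g⁻¹ • b = g⁻¹ • b := by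
      rw [← hg, mul_smul, mul_smul] at hb
      rw [eq_inv_smul_iff, hb]
    rw [← involution_fixed_unique hS hs hs1 hs2 h1, smul_inv_smul]

omit [Finite G] in
/-- If a set of elements of `G_a` fixes two points besides `a`, its centraliser in `Q` moves one to the other. -/
theorem exists_fixed_move {X : Set G} (hXa : ∀ x ∈ X, x • a = a) {b c : Ω} (hb : b ≠ a) (hc : c ≠ a)
    (hXb : ∀ x ∈ X, x • b = b) (hXc : ∀ x ∈ X, x • c = c) :
    ∃ y ∈ Q, y ∈ Subgroup.centralizer X ∧ y • b = c := by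
  obtain ⟨y, hy, rfl⟩ := exists_reg hS hb
  obtain ⟨z, hz, rfl⟩ := exists_reg hS hc
  refine ⟨z * y⁻¹, Q.mul_mem hz (Q.inv_mem hy), ?_, by rw [mul_smul, inv_smul_smul]⟩
  rw [Subgroup.mem_centralizer_iff]
  intro x hx
  have hconj : x * (z * y⁻¹) * x⁻¹ ∈ Q := hS.conj_mem x (hXa x hx) _ (Q.mul_mem hz (Q.inv_mem hy))
  have h1 : x * (z * y⁻¹) * x⁻¹ * y = z := by
    refine reg_unique hS (Q.mul_mem hconj hy) hz ?_
    rw [mul_smul, mul_smul, mul_smul, mul_smul, inv_smul_eq_iff.2 (hXb x hx).symm, inv_smul_smul, hXc x hx]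
  calc x * (z * y⁻¹) = x * (z * y⁻¹) * x⁻¹ * y * y⁻¹ * x := by group
    _ = z * y⁻¹ * x := by rw [h1]

end CfsgLib.RankOneSetup
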