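import Cfsg.Agent.RankOneSetup.Pairs
import Cfsg.Agent.CoprimeAction.Invariant

/-!
The rank one set-up: inverted elements act freely on `Q`, involutions of `G_a` are central in `Q`.
-/

set_option autoImplicit false
set_option linter.style.haveILetI false
set_option linter.unusedSectionVars false

open MulAction

namespace CfsgLib.RankOneSetup

variable {G Ω : Type*} [Group G] [Finite G] [MulAction G Ω] {a : Ω} {t : G} {Q : Subgroup G}
variable (hS : Cfsg.IsRankOneSetup G Ω a t Q)
include hS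

local notation "D" => stabilizer G a ⊓ stabilizer G (t • a)
local notation "Inv" => Cfsg.involutionsIn (stabilizer G a : Set G)
local notation "K" => Cfsg.invertedBy (stabilizer G a ⊓ stabilizer G (t • a)) t

/-- A non-trivial inverted element fixes only the two base points. -/
theorem inverted_fixed {k : G} (hk : k ∈ K) (hk1 : k ≠ 1) {b : Ω} (hb : k • b = b) : b = a ∨ b = t • a := by
  by_contra h
  push Not at h
  obtain ⟨w, hwX, hw2, hwa, hwt⟩ := exists_swap hS (X := {k}) (by intro x hx; rw [hx]; exact hk.1)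
    ⟨a, t • a, b, (ne_base hS).symm, h.1.symm, h.2.symm, by
      intro x hx; rw [hx]; exact ⟨(Subgroup.mem_inf.1 hk.1).1, (Subgroup.mem_inf.1 hk.1).2, hb⟩⟩
  have hm : t * w ∈ (D : Subgroup G) := Subgroup.mem_inf.2
    ⟨by show (t * w) • a = a; rw [mul_smul, hwa, swap_smul hS], by show (t * w) • t • a = t • a; rw [mul_smul, hwt]⟩
  have hkw : k * w = w * k := Subgroup.mem_centralizer_iff.1 hwX k rfl
  have hinv : (t * w) * k * (t * w)⁻¹ = k⁻¹ := by
    calc (t * w) * k * (t * w)⁻¹ = t * (w * k * w⁻¹) * t⁻¹ := by group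
      _ = t * k * t⁻¹ := by rw [← hkw, mul_inv_cancel_right]
      _ = k⁻¹ := hk.2
  set e := t * w with he
  have h2 : Commute (e * e) k := by
    show e * e * k = k * (e * e)
    calc e * e * k = e * (e * k * e⁻¹) * e⁻¹ * (e * e) := by group
      _ = e * k⁻¹ * e⁻¹ * (e * e) := by rw [hinv]
      _ = (e * k * e⁻¹)⁻¹ * (e * e) := by group
      _ = k * (e * e) := by rw [hinv, inv_inv]
  have h3 : Commute e k := by
    have h5 := h2.pow_left ((Nat.card (D : Subgroup G) + 1) / 2)
    rwa [(Commute.refl e).mul_pow, pow_half_sq hS.odd_card hm] at h5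
  rw [h3.eq, mul_inv_cancel_right] at hinv
  exact hk1 (eq_one_of_sq_D hS hk.1 (by nth_rewrite 2 [hinv]; rw [mul_inv_cancel]))

theorem inverted_centralizer {k : G} (hk : k ∈ K) (hk1 : k ≠ 1) {q : G} (hq : q ∈ Q) (hc : q * k = k * q) : q = 1 := by
  by_contra hq1
  obtain ⟨hka, hkt⟩ := Subgroup.mem_inf.1 hk.1
  have hfix : k • q • t • a = q • t • a := by
    rw [← mul_smul k q, ← hc, mul_smul, show k • t • a = t • a from hkt]
  rcases inverted_fixed hS hk hk1 hfix with h | h
  · have h1 := congrArg (fun b => q⁻¹ • b) h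
    simp only [inv_smul_smul] at h1
    rw [smul_Q hS (Q.inv_mem hq)] at h1
    exact ne_base hS h1
  · exact hq1 (reg_unique hS hq Q.one_mem (by rw [h, one_smul]))

theorem exists_inverted_prime {p : ℕ} [Fact p.Prime] (h : p ∣ Nat.card K) :
    ∃ k ∈ K, orderOf k = p := by
  have hnorm : ∀ x ∈ (D : Subgroup G), t * x * t⁻¹ ∈ (D : Subgroup G) := fun x hx => t_conj_mem_D hS hx
  have htD : Subgroup.zpowers t ≤ Subgroup.normalizer ((D : Subgroup G) : Set G) := by
    rw [Subgroup.zpowers_le, Subgroup.mem_normalizer_iff]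
    intro x
    refine ⟨hnorm x, fun hx => ?_⟩
    rw [← t_conj_conj hS.mul_self x]
    exact hnorm _ hx
  have hcard2 : Nat.card (Subgroup.zpowers t) = 2 := by
    rw [Nat.card_zpowers]; exact CfsgLib.Invol.orderOf_eq_two hS.mul_self hS.ne_one
  have hcop : (Nat.card (Subgroup.zpowers t)).Coprime (Nat.card (D : Subgroup G)) := by
    rw [hcard2]; exact Nat.coprime_two_left.2 hS.odd_card
  obtain ⟨P, hP⟩ := CfsgLib.CoprimeAction.exists_invariant_sylow htD hcop
    (Or.inl (Group.isSolvable_of_comm fun x y => mul_comm' x y)) p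
  set P' := (P : Subgroup (D : Subgroup G)).map (D : Subgroup G).subtype with hP'
  have hPD : P' ≤ (D : Subgroup G) := Subgroup.map_subtype_le _
  have hPodd : Odd (Nat.card P') := hS.odd_card.of_dvd_nat (Subgroup.card_dvd_of_le hPD)
  have hPn : ∀ x ∈ P', t * x * t⁻¹ ∈ P' := fun x hx =>
    (Subgroup.mem_normalizer_iff.1 (hP (Subgroup.mem_zpowers t)) x).1 hx
  by_cases hle : ∀ x ∈ P', x * t = t * x
  · exfalso
    have hdvd : Nat.card P' ∣ Nat.card ↥((D : Subgroup G) ⊓ Subgroup.centralizer {t}) :=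
      Subgroup.card_dvd_of_le fun x hx =>
        Subgroup.mem_inf.2 ⟨hPD hx, Subgroup.mem_centralizer_singleton_iff.2 (hle x hx)⟩
    have hc := card_split (X := (D : Subgroup G)) hS.mul_self hS.odd_card hnorm
    have h2 : Nat.card P' * p ∣ Nat.card (D : Subgroup G) := hc ▸ Nat.mul_dvd_mul hdvd h
    rw [hP', Subgroup.card_map_of_injective (D : Subgroup G).subtype_injective, P.card_eq_multiplicity, ← pow_succ] at h2
    exact Nat.pow_succ_factorization_not_dvd Nat.card_pos.ne' Fact.out h2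
  · push Not at hle
    obtain ⟨x, hx, hxt⟩ := hle
    obtain ⟨y, z, hy, hyt, hz, rfl⟩ := exists_split hS.mul_self hPodd hPn hx
    have hz1 : z ≠ 1 := fun h => hxt (by rw [h, mul_one]; exact hyt)
    obtain ⟨n, hn⟩ := IsPGroup.iff_orderOf.1 (P.2.map (D : Subgroup G).subtype) ⟨z, hz.1⟩
    rw [Subgroup.orderOf_mk] at hn
    obtain ⟨m, rfl⟩ : ∃ m, n = m + 1 := ⟨n - 1, by
      rcases Nat.eq_zero_or_pos n with h0 | h0
      · rw [h0, pow_zero, orderOf_eq_one_iff] at hn; exact absurd hn hz1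
      · omega⟩
    refine ⟨z ^ p ^ m, inverted_pow ⟨hPD hz.1, hz.2⟩ _, ?_⟩
    rw [orderOf_pow' z (pow_ne_zero _ (Fact.out : p.Prime).ne_zero), hn,
      Nat.gcd_eq_right (pow_dvd_pow p (Nat.le_succ m)), pow_succ, Nat.mul_div_cancel_left _ (pow_pos (Fact.out : p.Prime).pos m)]

theorem coprime_inverted_Q : (Nat.card K).Coprime (Nat.card Q) := by
  refine Nat.coprime_of_dvd fun p hp hpK hpQ => ?_
  haveI := Fact.mk hp
  obtain ⟨k, hk, hord⟩ := exists_inverted_prime hS hpK
  have hk1 : k ≠ 1 := fun h => hp.one_lt.ne' (by rw [← hord, h, orderOf_one])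
  have hkn : ∀ x ∈ Subgroup.zpowers k, ∀ q ∈ Q, x * q * x⁻¹ ∈ Q := fun x hx q hq =>
    hS.conj_mem x (Subgroup.zpowers_le.2 (Subgroup.mem_inf.1 hk.1).1 hx) q hq
  letI : MulAction (Subgroup.zpowers k) Q :=
    { smul := fun x q => ⟨(x : G) * q * (x : G)⁻¹, hkn x x.2 q q.2⟩
      one_smul := fun q => Subtype.ext (by show (1 : G) * q * (1 : G)⁻¹ = q; simp)
      mul_smul := fun x y q => Subtype.ext (by
        show ((x : G) * y) * q * ((x : G) * y)⁻¹ = (x : G) * ((y : G) * q * (y : G)⁻¹) * (x : G)⁻¹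
        group) }
  have hpg : IsPGroup p (Subgroup.zpowers k) := IsPGroup.of_card (n := 1) (by rw [Nat.card_zpowers, hord, pow_one])
  have hmod := hpg.card_modEq_card_fixedPoints Q
  have hfp : Nat.card (fixedPoints (Subgroup.zpowers k) Q) = 1 := by
    rw [Nat.card_eq_one_iff_exists]
    refine ⟨⟨1, fun x => Subtype.ext (by show (x : G) * 1 * (x : G)⁻¹ = 1; simp)⟩, fun q => ?_⟩
    refine Subtype.ext (Subtype.ext ?_)
    have h := congrArg Subtype.val (q.2 ⟨k, Subgroup.mem_zpowers k⟩)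
    exact inverted_centralizer hS hk hk1 q.1.2 (mul_inv_eq_iff_eq_mul.1 h).symm
  rw [hfp] at hmod
  have h0 : Nat.card Q ≡ 0 [MOD p] := Nat.modEq_zero_iff_dvd.2 hpQ
  exact hp.not_dvd_one (Nat.modEq_zero_iff_dvd.1 (hmod.symm.trans h0))

theorem Inv_central {s : G} (hs : s ∈ Inv) {q : G} (hq : q ∈ Q) : s * q = q * s := by
  classical
  haveI := Fintype.ofFinite G
  haveI := Fintype.ofFinite Q
  -- the `Q`-classes
  let cl : G → Finset G := fun u => Finset.univ.image fun q : Q => (q : G) * u * (q : G)⁻¹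
  let I : Finset G := Finset.univ.filter fun u => u ∈ Inv
  have hI : I.card = Nat.card Inv := by
    rw [Nat.card_eq_fintype_card]
    exact (Fintype.card_ofFinset (p := Inv) _ (fun u => by simp [I])).symm.trans (Fintype.card_congr' rfl)
  have hclI : ∀ u ∈ Inv, cl u ⊆ I := by
    intro u hu v hv
    obtain ⟨q, -, rfl⟩ := Finset.mem_image.1 hv
    refine Finset.mem_filter.2 ⟨Finset.mem_univ _, mul_mem (mul_mem (hS.le q.2) hu.1) (inv_mem (hS.le q.2)),
      fun h => hu.2.1 (conj_eq_one_iff.1 h), ?_⟩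
    rw [show (q : G) * u * (q : G)⁻¹ * ((q : G) * u * (q : G)⁻¹) = (q : G) * (u * u) * (q : G)⁻¹ by group, hu.2.2]
    group
  have hcleq : ∀ u v : G, v ∈ cl u → cl v = cl u := by
    intro u v hv
    obtain ⟨q, -, rfl⟩ := Finset.mem_image.1 hv
    ext w
    constructor
    · intro hw
      obtain ⟨r, -, rfl⟩ := Finset.mem_image.1 hw
      exact Finset.mem_image.2 ⟨r * q, Finset.mem_univ _, by rw [Subgroup.coe_mul]; group⟩
    · intro hw
      obtain ⟨r, -, rfl⟩ := Finset.mem_image.1 hw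
      exact Finset.mem_image.2 ⟨r * q⁻¹, Finset.mem_univ _, by rw [Subgroup.coe_mul, Subgroup.coe_inv]; group⟩
  have hsame : ∀ u ∈ Inv, (cl u).card = (cl s).card := by
    intro u hu
    obtain ⟨k, hk⟩ := (inverted_bijective hS hs).2 ⟨u, hu⟩
    have hk' : (k : G)⁻¹ * s * k = u := congrArg Subtype.val hk
    have hcl : cl u = (cl s).image fun v => (k : G)⁻¹ * v * k := by
      ext w
      have hka : (k : G) ∈ stabilizer G a := (Subgroup.mem_inf.1 k.2.1).1
      constructor
      · intro hw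
        obtain ⟨q, -, rfl⟩ := Finset.mem_image.1 hw
        refine Finset.mem_image.2 ⟨_, Finset.mem_image.2 ⟨⟨_, hS.conj_mem _ hka q q.2⟩, Finset.mem_univ _, rfl⟩, ?_⟩
        rw [← hk']; group
      · intro hw
        obtain ⟨v, hv, rfl⟩ := Finset.mem_image.1 hw
        obtain ⟨q, -, rfl⟩ := Finset.mem_image.1 hv
        refine Finset.mem_image.2 ⟨⟨_, hS.conj_mem _ (inv_mem hka) q q.2⟩, Finset.mem_univ _, ?_⟩
        show ((k : G)⁻¹ * q * (k : G)⁻¹⁻¹) * u * ((k : G)⁻¹ * q * (k : G)⁻¹⁻¹)⁻¹ = (k : G)⁻¹ * ((q : G) * s * (q : G)⁻¹) * k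
        rw [← hk']; group
    rw [hcl, Finset.card_image_of_injective _ (fun x y h => mul_left_cancel (mul_right_cancel h))]
  have hdvdK : (cl s).card ∣ Nat.card K := by
    rw [card_inverted hS, ← hI, Finset.card_eq_sum_card_image cl I]
    refine Finset.dvd_sum fun c hc => ?_
    obtain ⟨u, hu, rfl⟩ := Finset.mem_image.1 hc
    have huI : u ∈ Inv := (Finset.mem_filter.1 hu).2
    have hfib : (I.filter fun v => cl v = cl u) = cl u := by
      ext v
      constructor
      · intro hv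
        rw [← (Finset.mem_filter.1 hv).2]
        exact Finset.mem_image.2 ⟨1, Finset.mem_univ _, by rw [Subgroup.coe_one]; group⟩
      · intro hv
        exact Finset.mem_filter.2 ⟨hclI u huI hv, hcleq u v hv⟩
    rw [hfib, hsame u huI]
  have hdvdQ : (cl s).card ∣ Nat.card Q := by
    let φ : Q →* G := Q.subtype
    have hst : ((Subgroup.centralizer ({s} : Set G)).subgroupOf Q).index = (cl s).card := by
      have : (cl s : Set G) = Set.range (fun q : Q => (q : G) * s * (q : G)⁻¹) := by simp [cl]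
      rw [← Set.ncard_coe_finset, this, ← Nat.card_coe_set_eq, Subgroup.index]
      refine Nat.card_eq_of_bijective
        (Quotient.lift (fun q : Q => (⟨(q : G) * s * (q : G)⁻¹, q, rfl⟩ : Set.range fun q : Q => (q : G) * s * (q : G)⁻¹)) ?_) ⟨?_, ?_⟩
      · intro x y hxy
        have h' : x⁻¹ * y ∈ (Subgroup.centralizer ({s} : Set G)).subgroupOf Q := QuotientGroup.leftRel_apply.1 hxy
        have h : (x : G)⁻¹ * y ∈ Subgroup.centralizer ({s} : Set G) := h'
        rw [Subgroup.mem_centralizer_singleton_iff] at h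
        refine Subtype.ext ?_
        show (x : G) * s * (x : G)⁻¹ = (y : G) * s * (y : G)⁻¹
        calc (x : G) * s * (x : G)⁻¹ = (x : G) * (s * ((x : G)⁻¹ * y)) * (y : G)⁻¹ := by group
          _ = (x : G) * ((x : G)⁻¹ * y * s) * (y : G)⁻¹ := by rw [h]
          _ = (y : G) * s * (y : G)⁻¹ := by group
      · intro x y
        induction x using Quotient.inductionOn with | h x => ?_
        induction y using Quotient.inductionOn with | h y => ?_
        intro hxy
        have h : (x : G) * s * (x : G)⁻¹ = (y : G) * s * (y : G)⁻¹ := congrArg Subtype.val hxy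
        refine Quotient.sound (QuotientGroup.leftRel_apply.2 ?_)
        show (x : G)⁻¹ * y ∈ Subgroup.centralizer ({s} : Set G)
        rw [Subgroup.mem_centralizer_singleton_iff]
        calc (x : G)⁻¹ * y * s = (x : G)⁻¹ * ((y : G) * s * (y : G)⁻¹) * y := by group
          _ = (x : G)⁻¹ * ((x : G) * s * (x : G)⁻¹) * y := by rw [h]
          _ = s * ((x : G)⁻¹ * y) := by group
      · rintro ⟨-, q, rfl⟩
        exact ⟨Quotient.mk _ q, rfl⟩
    rw [← hst]
    exact Subgroup.index_dvd_card _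
  have hone : (cl s).card = 1 :=
    Nat.eq_one_of_dvd_coprimes (coprime_inverted_Q hS) hdvdK hdvdQ
  obtain ⟨v, hv⟩ := Finset.card_eq_one.1 hone
  have h1 : ∀ r : Q, (r : G) * s * (r : G)⁻¹ = v := fun r => by
    have : (r : G) * s * (r : G)⁻¹ ∈ cl s := Finset.mem_image.2 ⟨r, Finset.mem_univ _, rfl⟩
    rwa [hv, Finset.mem_singleton] at this
  have h2 := (h1 ⟨q, hq⟩).trans (h1 1).symm
  simp only [OneMemClass.coe_one, one_mul, inv_one, mul_one] at h2
  exact (mul_inv_eq_iff_eq_mul.1 h2).symm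

theorem Inv_commute {s u : G} (hs : s ∈ Inv) (hu : u ∈ Inv) : s * u = u * s :=
  Inv_central hS hs (involution_mem_Q hS hu.1 hu.2.2)

/-- The centralizer of an involution of `G_a` moves everything except `a`. -/
theorem exists_centralizer_move {u : G} (hu1 : u ≠ 1) (hu2 : u * u = 1) {p b c : Ω} (hp : u • p = p) (hb : b ≠ p)
    (hc : c ≠ p) : ∃ y : G, y * u = u * y ∧ y • b = c := by
  haveI := pretrans hS
  obtain ⟨g, rfl⟩ := MulAction.exists_smul_eq G a p
  have hs : g⁻¹ * u * g ∈ Inv := by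
    refine ⟨?_, fun h => hu1 ?_, ?_⟩
    · show (g⁻¹ * u * g) • a = a
      rw [mul_smul, mul_smul, hp, inv_smul_smul]
    · calc u = g * (g⁻¹ * u * g) * g⁻¹ := by group
        _ = 1 := by rw [h]; group
    · rw [show g⁻¹ * u * g * (g⁻¹ * u * g) = g⁻¹ * (u * u) * g by group, hu2]; group
  obtain ⟨y, hy, hyb⟩ := exists_reg hS (show g⁻¹ • b ≠ a from fun h => hb (by rw [← h, smul_inv_smul]))
  obtain ⟨z, hz, hzc⟩ := exists_reg hS (show g⁻¹ • c ≠ a from fun h => hc (by rw [← h, smul_inv_smul]))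
  refine ⟨g * (z * y⁻¹) * g⁻¹, ?_, ?_⟩
  · calc g * (z * y⁻¹) * g⁻¹ * u = g * (z * y⁻¹ * (g⁻¹ * u * g)) * g⁻¹ := by group
      _ = g * (g⁻¹ * u * g * (z * y⁻¹)) * g⁻¹ := by rw [Inv_central hS hs (Q.mul_mem hz (Q.inv_mem hy))]
      _ = u * (g * (z * y⁻¹) * g⁻¹) := by group
  · rw [mul_smul, mul_smul, mul_smul, ← hyb, inv_smul_smul, hzc, smul_inv_smul]

end CfsgLib.RankOneSetup
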