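import Mathlib
import Cfsg.Prelude.Def_LieRecognition

/-!
An involution acting on a subgroup of odd order: fixed part times inverted part.
-/

set_option autoImplicit false

namespace CfsgLib.RankOneSetup

variable {M : Type*} [Group M] {X : Subgroup M} {t : M}

/-- The half exponent: a square root inside an odd order subgroup. -/
theorem pow_half_sq (hodd : Odd (Nat.card X)) {x : M} (hx : x ∈ X) :
    (x ^ ((Nat.card X + 1) / 2)) * (x ^ ((Nat.card X + 1) / 2)) = x := by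
  obtain ⟨m, hm⟩ := hodd
  rw [← pow_add, show (Nat.card X + 1) / 2 + (Nat.card X + 1) / 2 = Nat.card X + 1 by omega, pow_succ,
    show x ^ Nat.card X = 1 from orderOf_dvd_iff_pow_eq_one.1 (Subgroup.orderOf_dvd_natCard X hx), one_mul]

theorem sq_injective (hodd : Odd (Nat.card X)) {x y : M} (hx : x ∈ X) (hy : y ∈ X) (h : x * x = y * y) : x = y := by
  obtain ⟨m, hm⟩ := hodd
  have key : ∀ z ∈ X, (z * z) ^ (m + 1) = z := fun z hz => by
    rw [← pow_two, ← pow_mul, show 2 * (m + 1) = Nat.card X + 1 by omega, pow_succ,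
      show z ^ Nat.card X = 1 from orderOf_dvd_iff_pow_eq_one.1 (Subgroup.orderOf_dvd_natCard X hz), one_mul]
  rw [← key x hx, ← key y hy, h]

theorem inverted_pow {x : M} (h : x ∈ Cfsg.invertedBy X t) (n : ℕ) : x ^ n ∈ Cfsg.invertedBy X t :=
  ⟨X.pow_mem h.1 n, by rw [← conj_pow, h.2, inv_pow]⟩

theorem t_conj_conj (ht : t * t = 1) (x : M) : t * (t * x * t⁻¹) * t⁻¹ = x := by
  rw [inv_eq_of_mul_eq_one_left ht]
  calc t * (t * x * t) * t = (t * t) * x * (t * t) := by group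
    _ = x := by rw [ht, one_mul, mul_one]

theorem commutator_inverted (ht : t * t = 1) (hnorm : ∀ x ∈ X, t * x * t⁻¹ ∈ X) {x : M} (hx : x ∈ X) :
    x⁻¹ * (t * x * t⁻¹) ∈ Cfsg.invertedBy X t := by
  refine ⟨X.mul_mem (X.inv_mem hx) (hnorm x hx), ?_⟩
  calc t * (x⁻¹ * (t * x * t⁻¹)) * t⁻¹ = (t * x⁻¹ * t⁻¹) * (t * (t * x * t⁻¹) * t⁻¹) := by group
    _ = (t * x⁻¹ * t⁻¹) * x := by rw [t_conj_conj ht]
    _ = (x⁻¹ * (t * x * t⁻¹))⁻¹ := by group

theorem exists_split (ht : t * t = 1) (hodd : Odd (Nat.card X)) (hnorm : ∀ x ∈ X, t * x * t⁻¹ ∈ X) {x : M}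
    (hx : x ∈ X) : ∃ y z : M, y ∈ X ∧ y * t = t * y ∧ z ∈ Cfsg.invertedBy X t ∧ x = y * z := by
  have hk := commutator_inverted ht hnorm hx
  set k := x⁻¹ * (t * x * t⁻¹) with hkdef
  set w := k ^ ((Nat.card X + 1) / 2) with hw
  have hwi : w ∈ Cfsg.invertedBy X t := inverted_pow hk _
  have hww : w * w = k := pow_half_sq hodd hk.1
  refine ⟨x * w, w⁻¹, X.mul_mem hx hwi.1, mul_inv_eq_iff_eq_mul.1 ?_ |>.symm, ⟨X.inv_mem hwi.1, ?_⟩, by group⟩
  · calc t * (x * w) * t⁻¹ = (t * x * t⁻¹) * (t * w * t⁻¹) := by group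
      _ = x * k * w⁻¹ := by rw [hwi.2, hkdef]; group
      _ = x * w := by rw [← hww]; group
  · calc t * w⁻¹ * t⁻¹ = (t * w * t⁻¹)⁻¹ := by group
      _ = w⁻¹⁻¹ := by rw [hwi.2]

theorem split_unique (hodd : Odd (Nat.card X)) {y z y' z' : M} (hy : y * t = t * y) (hy' : y' * t = t * y')
    (hz : z ∈ Cfsg.invertedBy X t) (hz' : z' ∈ Cfsg.invertedBy X t) (h : y * z = y' * z') : y = y' ∧ z = z' := by
  have key : ∀ y z : M, y * t = t * y → z ∈ Cfsg.invertedBy X t → t * (y * z) * t⁻¹ = y * z⁻¹ := fun y z hy hz => by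
    calc t * (y * z) * t⁻¹ = (t * y) * (t⁻¹ * (t * z * t⁻¹)) := by group
      _ = y * z⁻¹ := by rw [hz.2, ← hy]; group
  have h2 : y * z⁻¹ = y' * z'⁻¹ := by rw [← key y z hy hz, ← key y' z' hy' hz', h]
  have h3 : z * z = z' * z' := by
    have e1 : z * z = (y * z⁻¹)⁻¹ * (y * z) := by group
    rw [e1, h, h2]; group
  have h4 := sq_injective hodd hz.1 hz'.1 h3
  refine ⟨?_, h4⟩
  rw [h4] at h
  exact mul_right_cancel h

theorem card_split (ht : t * t = 1) (hodd : Odd (Nat.card X)) (hnorm : ∀ x ∈ X, t * x * t⁻¹ ∈ X) :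
    Nat.card X = Nat.card ↥(X ⊓ Subgroup.centralizer {t}) * Nat.card (Cfsg.invertedBy X t) := by
  rw [← Nat.card_prod]
  refine (Nat.card_eq_of_bijective
    (fun p : ↥(X ⊓ Subgroup.centralizer {t}) × Cfsg.invertedBy X t => (⟨p.1 * p.2, X.mul_mem (Subgroup.mem_inf.1 p.1.2).1 p.2.2.1⟩ : X))
    ⟨?_, ?_⟩).symm
  · rintro ⟨y, z⟩ ⟨y', z'⟩ h
    obtain ⟨h1, h2⟩ := split_unique hodd
      (Subgroup.mem_centralizer_singleton_iff.1 (Subgroup.mem_inf.1 y.2).2)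
      (Subgroup.mem_centralizer_singleton_iff.1 (Subgroup.mem_inf.1 y'.2).2) z.2 z'.2 (congrArg Subtype.val h)
    exact Prod.ext (Subtype.ext h1) (Subtype.ext h2)
  · rintro ⟨x, hx⟩
    obtain ⟨y, z, hy, hyt, hz, rfl⟩ := exists_split ht hodd hnorm hx
    exact ⟨(⟨y, Subgroup.mem_inf.2 ⟨hy, Subgroup.mem_centralizer_singleton_iff.2 hyt⟩⟩, ⟨z, hz⟩), rfl⟩

/-- Inverted elements are separated by any conjugate, by an inverted element, of the fixed subgroup. -/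
theorem eq_of_conj_fixed (hodd : Odd (Nat.card X)) {c z z' : M} (hc : c ∈ Cfsg.invertedBy X t)
    (hz : z ∈ Cfsg.invertedBy X t) (hz' : z' ∈ Cfsg.invertedBy X t)
    (h : (c * z * z'⁻¹ * c⁻¹) * t = t * (c * z * z'⁻¹ * c⁻¹)) : z = z' := by
  have ha : c⁻¹ * z⁻¹ * z' * c = c * z * z'⁻¹ * c⁻¹ := by
    have h1 : t * (c * z * z'⁻¹ * c⁻¹) * t⁻¹ = c * z * z'⁻¹ * c⁻¹ := mul_inv_eq_iff_eq_mul.2 h.symm
    rw [show t * (c * z * z'⁻¹ * c⁻¹) * t⁻¹ =
      (t * c * t⁻¹) * (t * z * t⁻¹) * (t * z' * t⁻¹)⁻¹ * (t * c * t⁻¹)⁻¹ by group, hc.2, hz.2, hz'.2] at h1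
    rw [← h1]; group
  have h2 : (c * z * c) * (c * z * c) = (c * z' * c) * (c * z' * c) := by
    calc (c * z * c) * (c * z * c) = (c * z * c) * c * (z * z'⁻¹) * (z' * c) := by group
      _ = (c * z * c) * (c * z * z'⁻¹ * c⁻¹) * (c * z' * c) := by group
      _ = (c * z' * c) * (c * z' * c) := by rw [← ha]; group
  have h3 := sq_injective hodd (X.mul_mem (X.mul_mem hc.1 hz.1) hc.1) (X.mul_mem (X.mul_mem hc.1 hz'.1) hc.1) h2
  exact mul_left_cancel (mul_right_cancel h3)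

end CfsgLib.RankOneSetup
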