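import Cfsg.Agent.RankOneSetup.Basic
import Cfsg.Agent.RankOneSetup.Inverted

/-!
The rank one set-up: the structure equation, involutions versus inverted elements, fixed point sets.
-/

set_option autoImplicit false
set_option linter.style.haveILetI false
set_option linter.unusedSectionVars false

open MulAction

namespace CfsgLib.RankOneSetup

variable {G Ω : Type*} [Group G] [Finite G] [MulAction G Ω] {a : Ω} {t : G} {Q : Subgroup G}
variable (hS : Cfsg.IsRankOneSetup G Ω a t Q)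
include hS

local notation "D" => stabilizer G a ⊓ stabilizer G (t • a)
local notation "Inv" => Cfsg.involutionsIn (stabilizer G a : Set G)
local notation "K" => Cfsg.invertedBy (stabilizer G a ⊓ stabilizer G (t • a)) t

theorem t_conj_sq (s : G) : t * (t * s * t) * t = s := by
  calc t * (t * s * t) * t = (t * t) * s * (t * t) := by group
    _ = s := by rw [hS.mul_self, one_mul, mul_one]

theorem tt_cancel (x : G) : t * (t * x) = x := by rw [← mul_assoc, hS.mul_self, one_mul]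

theorem exists_pair : ∃ s r : G, s ∈ Inv ∧ r ∈ Q ∧ t * s * t = r⁻¹ * t * r := by
  obtain ⟨c, hc, -⟩ := existsUnique_fixed hS hS.ne_one hS.mul_self
  have hca : c ≠ a := fun h => ne_base hS (h ▸ hc)
  obtain ⟨r, hr, hrc⟩ := exists_reg hS hca
  refine ⟨t * (r⁻¹ * t * r) * t, r, ⟨?_, ?_, ?_⟩, hr, t_conj_sq hS _⟩
  · show (t * (r⁻¹ * t * r) * t) • a = a
    rw [mul_smul, mul_smul, mul_smul, mul_smul, hrc, hc, ← hrc, inv_smul_smul, swap_smul hS]
  · intro h
    have h1 : r⁻¹ * t * r = 1 := by rw [← t_conj_sq hS (r⁻¹ * t * r), h, mul_one, hS.mul_self]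
    apply hS.ne_one
    calc t = r * (r⁻¹ * t * r) * r⁻¹ := by group
      _ = 1 := by rw [h1]; group
  · simp [mul_assoc, tt_cancel hS, hS.mul_self, mul_inv_cancel_left]

theorem pair_unique {s r s' r' : G} (hs : s ∈ Inv) (hr : r ∈ Q) (h : t * s * t = r⁻¹ * t * r)
    (hs' : s' ∈ Inv) (hr' : r' ∈ Q) (h' : t * s' * t = r'⁻¹ * t * r') : s = s' ∧ r = r' := by
  obtain ⟨c, -, huniq⟩ := existsUnique_fixed hS hS.ne_one hS.mul_self
  have key : ∀ s r : G, s ∈ Inv → t * s * t = r⁻¹ * t * r → r • (t • a) = c := by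
    intro s r hs h
    refine huniq _ ?_
    show t • r • t • a = r • t • a
    have h1 : (t * s * t) • (t • a) = t • a := by rw [mul_smul, mul_smul, swap_smul hS, show s • a = a from hs.1]
    rw [h, mul_smul, mul_smul, inv_smul_eq_iff] at h1
    exact h1
  have hrr : r = r' := reg_unique hS hr hr' ((key s r hs h).trans (key s' r' hs' h').symm)
  refine ⟨?_, hrr⟩
  rw [← t_conj_sq hS s, ← t_conj_sq hS s', h, h', hrr]

/-- `C_D(t) = C_D(s)` for the pair of the structure equation. -/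
theorem commute_t_iff {s r : G} (hs : s ∈ Inv) (hr : r ∈ Q) (h : t * s * t = r⁻¹ * t * r) {d : G} (hd : d ∈ D) :
    d * t = t * d ↔ d * s = s * d := by
  obtain ⟨c, -, huniq⟩ := existsUnique_fixed hS hS.ne_one hS.mul_self
  have hrc : r • (t • a) = c := huniq _ (by
    show t • r • t • a = r • t • a
    have h1 : (t * s * t) • (t • a) = t • a := by rw [mul_smul, mul_smul, swap_smul hS, show s • a = a from hs.1]
    rw [h, mul_smul, mul_smul, inv_smul_eq_iff] at h1
    exact h1)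
  constructor
  · intro hdt
    have hdc : d • c = c := huniq _ (by
      show t • d • c = d • c
      rw [← mul_smul, ← hdt, mul_smul, ← hrc]
      congr 1
      have h1 : (t * s * t) • (t • a) = t • a := by rw [mul_smul, mul_smul, swap_smul hS, show s • a = a from hs.1]
      rw [h, mul_smul, mul_smul, inv_smul_eq_iff] at h1
      exact h1)
    have hdr : d * r * d⁻¹ = r := by
      refine reg_unique hS (hS.conj_mem d (Subgroup.mem_inf.1 hd).1 r hr) hr ?_
      rw [mul_smul, mul_smul, inv_smul_eq_iff.2 (show t • a = d • t • a from (Subgroup.mem_inf.1 hd).2.symm), hrc, hdc]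
    have hr' : Commute d r := mul_inv_eq_iff_eq_mul.1 hdr
    have hc : Commute d (t * s * t) := by rw [h]; exact (hr'.inv_right.mul_right hdt).mul_right hr'
    have hc2 : Commute d (t * (t * s * t) * t) := ((show Commute d t from hdt).mul_right hc).mul_right hdt
    rwa [t_conj_sq hS] at hc2
  · intro hds
    set e := t * d * t⁻¹ with he
    have heD : e ∈ D := t_conj_mem_D hS hd
    have heu : Commute e (t * s * t) := by
      show e * (t * s * t) = t * s * t * e
      calc e * (t * s * t) = t * (d * s) * t := by rw [he]; group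
        _ = t * (s * d) * t := by rw [hds]
        _ = t * s * t * e := by rw [he, inv_t hS]; simp [mul_assoc, tt_cancel hS]
    obtain ⟨hea, het⟩ := Subgroup.mem_inf.1 heD
    have hfix : e • (r⁻¹ • t • a) = r⁻¹ • t • a := by
      have h1 : (t * s * t) • a = r⁻¹ • t • a := by rw [h, mul_smul, mul_smul, smul_Q hS hr]
      rw [← h1, ← mul_smul, heu.eq, mul_smul, show e • a = a from hea]
    have her : e * r⁻¹ * e⁻¹ = r⁻¹ := by
      refine reg_unique hS (hS.conj_mem e hea r⁻¹ (Q.inv_mem hr)) (Q.inv_mem hr) ?_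
      rw [mul_smul, mul_smul, inv_smul_eq_iff.2 (show t • a = e • t • a from het.symm), hfix]
    have her' : Commute e r := by
      have : Commute e r⁻¹ := mul_inv_eq_iff_eq_mul.1 her
      simpa using this.inv_right
    have het' : Commute e t := by
      have h3 : Commute e (r * (t * s * t) * r⁻¹) := (her'.mul_right heu).mul_right her'.inv_right
      rwa [h, show r * (r⁻¹ * t * r) * r⁻¹ = t by group] at h3
    have hde : e = d := by
      calc e = t * (e * t⁻¹ * t) * t⁻¹ * 1 := by rw [mul_one, inv_mul_cancel_right, ← het'.eq, mul_inv_cancel_right]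
        _ = t * (t * d * t⁻¹) * t⁻¹ := by rw [he]; group
        _ = d := t_conj_conj hS.mul_self d
    rw [← hde]
    exact het'.eq

/-- As many inverted elements in `D` as involutions in `G_a`. -/
theorem card_inverted : Nat.card K = Nat.card Inv := by
  let Out := {u : G // u • a ≠ a ∧ u ≠ 1 ∧ u * u = 1}
  have h1 : Nat.card (Q × Inv) = Nat.card Out := by
    refine Nat.card_eq_of_bijective
      (fun p => (⟨(p.1 : G) * t * p.2 * ((p.1 : G) * t)⁻¹, ?_, ?_, ?_⟩ : Out)) ⟨?_, ?_⟩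
    · intro hfix
      have h : (p.2 : G) • ((p.1 : G) * t)⁻¹ • a = ((p.1 : G) * t)⁻¹ • a := by
        rw [mul_smul, mul_smul] at hfix
        rw [eq_inv_smul_iff]
        exact hfix
      have h2 := involution_fixed_unique hS p.2.2.1 p.2.2.2.1 p.2.2.2.2 h
      rw [inv_smul_eq_iff, mul_smul, ← inv_smul_eq_iff, smul_Q hS (Q.inv_mem p.1.2)] at h2
      exact ne_base hS h2.symm
    · exact fun h => p.2.2.2.1 (conj_eq_one_iff.1 h)
    · rw [show ∀ g x : G, g * x * g⁻¹ * (g * x * g⁻¹) = g * (x * x) * g⁻¹ from fun g x => by group, p.2.2.2.2]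
      group
    · rintro ⟨r, s⟩ ⟨r', s'⟩ h
      have h' := congrArg Subtype.val h
      simp only at h'
      have hr : (r : G) = r' := by
        obtain ⟨b, -, hb⟩ := existsUnique_fixed hS (u := (r : G) * t * s * ((r : G) * t)⁻¹)
          (fun h => s.2.2.1 (conj_eq_one_iff.1 h))
          (by rw [show ∀ g x : G, g * x * g⁻¹ * (g * x * g⁻¹) = g * (x * x) * g⁻¹ from fun g x => by group, s.2.2.2]; group)
        refine reg_unique hS r.2 r'.2 ((hb _ ?_).trans (hb _ ?_).symm)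
        · show ((r : G) * t * s * ((r : G) * t)⁻¹) • (r : G) • t • a = (r : G) • t • a
          rw [← mul_smul (r : G) t a, mul_smul, inv_smul_smul, mul_smul, show (s : G) • a = a from s.2.1]
        · show ((r : G) * t * s * ((r : G) * t)⁻¹) • (r' : G) • t • a = (r' : G) • t • a
          rw [h', ← mul_smul (r' : G) t a, mul_smul, inv_smul_smul, mul_smul, show (s' : G) • a = a from s'.2.1]
      rw [hr] at h'
      exact Prod.ext (Subtype.ext hr) (Subtype.ext (mul_left_cancel (mul_right_cancel h')))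
    · rintro ⟨u, hua, hu1, hu2⟩
      obtain ⟨b, hb, -⟩ := existsUnique_fixed hS hu1 hu2
      obtain ⟨r, hr, hrb⟩ := exists_reg hS (fun h => hua (h ▸ hb) : b ≠ a)
      refine ⟨(⟨r, hr⟩, ⟨(r * t)⁻¹ * u * (r * t), ?_, ?_, ?_⟩), Subtype.ext (by show r * t * ((r * t)⁻¹ * u * (r * t)) * (r * t)⁻¹ = u; group)⟩
      · show ((r * t)⁻¹ * u * (r * t)) • a = a
        rw [mul_smul, mul_smul, inv_smul_eq_iff, mul_smul, hrb, hb]
      · intro h
        apply hu1
        calc u = r * t * ((r * t)⁻¹ * u * (r * t)) * (r * t)⁻¹ := by group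
          _ = 1 := by rw [h]; group
      · rw [show (r * t)⁻¹ * u * (r * t) * ((r * t)⁻¹ * u * (r * t)) = (r * t)⁻¹ * (u * u) * (r * t) by group, hu2]
        group
  have h2 : Nat.card (Q × K) = Nat.card Out := by
    have hk2 : ∀ k : K, (t * (k : G)) * (t * (k : G)) = 1 := fun k => by
      calc (t * (k : G)) * (t * (k : G)) = t * (k : G) * t⁻¹ * k := by rw [inv_t hS]; group
        _ = 1 := by rw [k.2.2, inv_mul_cancel]
    refine Nat.card_eq_of_bijective
      (fun p => (⟨(p.1 : G) * (t * p.2) * (p.1 : G)⁻¹, ?_, ?_, ?_⟩ : Out)) ⟨?_, ?_⟩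
    · rw [mul_smul, mul_smul, mul_smul, smul_Q hS (Q.inv_mem p.1.2), show (p.2 : G) • a = a from (Subgroup.mem_inf.1 p.2.2.1).1]
      intro h
      rw [← eq_inv_smul_iff, smul_Q hS (Q.inv_mem p.1.2)] at h
      exact ne_base hS h
    · intro h
      have h' := conj_eq_one_iff.1 h
      apply ne_base hS
      calc t • a = t • (p.2 : G) • a := by rw [show (p.2 : G) • a = a from (Subgroup.mem_inf.1 p.2.2.1).1]
        _ = a := by rw [← mul_smul, h', one_smul]
    · rw [show ∀ g x : G, g * x * g⁻¹ * (g * x * g⁻¹) = g * (x * x) * g⁻¹ from fun g x => by group, hk2]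
      group
    · rintro ⟨r, k⟩ ⟨r', k'⟩ h
      have h' := congrArg Subtype.val h
      simp only at h'
      have hmove : ∀ (r : Q) (k : K), ((r : G) * (t * k) * (r : G)⁻¹) • a = (r : G) • t • a := fun r k => by
        rw [mul_smul, mul_smul, mul_smul, smul_Q hS (Q.inv_mem r.2), show (k : G) • a = a from (Subgroup.mem_inf.1 k.2.1).1]
      have hr : (r : G) = r' := reg_unique hS r.2 r'.2 (by rw [← hmove r k, h', hmove r' k'])
      rw [hr] at h'
      exact Prod.ext (Subtype.ext hr) (Subtype.ext (mul_left_cancel (mul_left_cancel (mul_right_cancel h'))))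
    · rintro ⟨u, hua, hu1, hu2⟩
      obtain ⟨r, hr, hru⟩ := exists_reg hS hua
      set v := r⁻¹ * u * r with hv
      have hva : v • a = t • a := by rw [hv, mul_smul, mul_smul, smul_Q hS hr, ← hru, inv_smul_smul]
      have hvv : v * v = 1 := by rw [hv, show r⁻¹ * u * r * (r⁻¹ * u * r) = r⁻¹ * (u * u) * r by group, hu2]; group
      have hvt : v • t • a = a := by rw [← hva, smul_smul, hvv, one_smul]
      refine ⟨(⟨r, hr⟩, ⟨t * v, Subgroup.mem_inf.2 ⟨?_, ?_⟩, ?_⟩), Subtype.ext ?_⟩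
      · show (t * v) • a = a
        rw [mul_smul, hva, swap_smul hS]
      · show (t * v) • t • a = t • a
        rw [mul_smul, hvt]
      · rw [inv_t hS, mul_inv_rev, inv_eq_of_mul_eq_one_left hvv, inv_t hS, ← mul_assoc, hS.mul_self, one_mul]
      · show r * (t * (t * v)) * r⁻¹ = u
        rw [← mul_assoc t t v, hS.mul_self, one_mul, hv]
        group
  rw [Nat.card_prod] at h1 h2
  exact Nat.eq_of_mul_eq_mul_left Nat.card_pos (h2.trans h1.symm)

theorem conj_mem_Inv {s d : G} (hs : s ∈ Inv) (hd : d ∈ D) : d⁻¹ * s * d ∈ Inv := by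
  refine ⟨mul_mem (mul_mem (inv_mem (Subgroup.mem_inf.1 hd).1) hs.1) (Subgroup.mem_inf.1 hd).1, fun h => hs.2.1 ?_, ?_⟩
  · calc s = d * (d⁻¹ * s * d) * d⁻¹ := by group
      _ = 1 := by rw [h]; group
  · rw [show d⁻¹ * s * d * (d⁻¹ * s * d) = d⁻¹ * (s * s) * d by group, hs.2.2]; group

/-- The inverted elements permute the involutions of `G_a` regularly. -/
theorem inverted_bijective {s : G} (hs : s ∈ Inv) :
    Function.Bijective (fun k : K => (⟨(k : G)⁻¹ * s * k, conj_mem_Inv hS hs k.2.1⟩ : Inv)) := by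
  obtain ⟨s₀, r₀, hs₀, hr₀, h₀⟩ := exists_pair hS
  have key : ∀ c : K, ∀ k k' : K, (k : G)⁻¹ * ((c : G)⁻¹ * s₀ * c) * k = (k' : G)⁻¹ * ((c : G)⁻¹ * s₀ * c) * k' → k = k' := by
    intro c k k' h
    refine Subtype.ext (eq_of_conj_fixed hS.odd_card c.2 k.2 k'.2 ?_)
    refine (commute_t_iff hS hs₀ hr₀ h₀ (mul_mem (mul_mem (mul_mem c.2.1 k.2.1) (inv_mem k'.2.1)) (inv_mem c.2.1))).2 ?_
    calc (c : G) * k * (k' : G)⁻¹ * (c : G)⁻¹ * s₀ = (c : G) * k * ((k' : G)⁻¹ * ((c : G)⁻¹ * s₀ * c) * k') * (k' : G)⁻¹ * (c : G)⁻¹ := by group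
      _ = s₀ * ((c : G) * k * (k' : G)⁻¹ * (c : G)⁻¹) := by rw [← h]; group
  have hcard := card_inverted hS
  have h1K : (1 : G) ∈ K := ⟨one_mem _, by group⟩
  have hb₀ : Function.Bijective (fun k : K => (⟨(k : G)⁻¹ * s₀ * k, conj_mem_Inv hS hs₀ k.2.1⟩ : Inv)) := by
    refine (Nat.bijective_iff_injective_and_card _).2 ⟨fun k k' h => key ⟨1, h1K⟩ k k' ?_, hcard⟩
    simpa using congrArg Subtype.val h
  obtain ⟨c, hc⟩ := hb₀.2 ⟨s, hs⟩
  have hcs : (c : G)⁻¹ * s₀ * c = s := congrArg Subtype.val hc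
  refine (Nat.bijective_iff_injective_and_card _).2 ⟨fun k k' h => key c k k' ?_, hcard⟩
  rw [hcs]
  exact congrArg Subtype.val h

/-- Moving fixed points of `X` by its centraliser, one point held. -/
theorem exists_move {X : Set G} {p b c : Ω} (hb : b ≠ p) (hc : c ≠ p)
    (hX : ∀ x ∈ X, x • p = p ∧ x • b = b ∧ x • c = c) :
    ∃ y ∈ Subgroup.centralizer X, y • p = p ∧ y • b = c := by
  haveI := pretrans hS
  obtain ⟨g, rfl⟩ := MulAction.exists_smul_eq G a p
  obtain ⟨y, hy, hyc, hyb⟩ := exists_fixed_move hS (X := (fun x => g⁻¹ * x * g) '' X) (b := g⁻¹ • b) (c := g⁻¹ • c)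
    (by rintro _ ⟨x, hx, rfl⟩; rw [mul_smul, mul_smul, (hX x hx).1, inv_smul_smul])
    (fun h => hb (by rw [← h, smul_inv_smul])) (fun h => hc (by rw [← h, smul_inv_smul]))
    (by rintro _ ⟨x, hx, rfl⟩; rw [mul_smul, mul_smul, smul_inv_smul, (hX x hx).2.1])
    (by rintro _ ⟨x, hx, rfl⟩; rw [mul_smul, mul_smul, smul_inv_smul, (hX x hx).2.2])
  refine ⟨g * y * g⁻¹, Subgroup.mem_centralizer_iff.2 fun x hx => ?_, ?_, ?_⟩
  · have h := Subgroup.mem_centralizer_iff.1 hyc _ ⟨x, hx, rfl⟩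
    calc x * (g * y * g⁻¹) = g * (g⁻¹ * x * g * y) * g⁻¹ := by group
      _ = g * y * g⁻¹ * x := by rw [h]; group
  · rw [mul_smul, mul_smul, inv_smul_smul, smul_Q hS hy]
  · rw [mul_smul, mul_smul, hyb, smul_inv_smul]

theorem centralizer_two_trans {X : Set G}
    (h3 : ∃ b c d : Ω, b ≠ c ∧ b ≠ d ∧ c ≠ d ∧ ∀ x ∈ X, x • b = b ∧ x • c = c ∧ x • d = d)
    {b₁ b₂ c₁ c₂ : Ω} (hX : ∀ x ∈ X, x • b₁ = b₁ ∧ x • b₂ = b₂ ∧ x • c₁ = c₁ ∧ x • c₂ = c₂)
    (hb : b₁ ≠ b₂) (hc : c₁ ≠ c₂) : ∃ g ∈ Subgroup.centralizer X, g • b₁ = c₁ ∧ g • b₂ = c₂ := by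
  obtain ⟨b, c, d, hbc, hbd, hcd, hf⟩ := h3
  have hfirst : ∃ g ∈ Subgroup.centralizer X, g • b₁ = c₁ := by
    obtain ⟨p, hp, hp1, hp2⟩ : ∃ p, (∀ x ∈ X, x • p = p) ∧ p ≠ b₁ ∧ p ≠ c₁ := by
      by_cases h : b ≠ b₁ ∧ b ≠ c₁
      · exact ⟨b, fun x hx => (hf x hx).1, h⟩
      by_cases h' : c ≠ b₁ ∧ c ≠ c₁
      · exact ⟨c, fun x hx => (hf x hx).2.1, h'⟩
      refine ⟨d, fun x hx => (hf x hx).2.2, ?_⟩
      push Not at h h'
      constructor <;> intro hd <;> subst hd
      · exact hbc ((h hbd).trans (h' hcd).symm)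
      · by_cases hb1 : b = b₁
        · by_cases hc1 : c = b₁
          · exact hbc (hb1.trans hc1.symm)
          · exact hcd (h' hc1)
        · exact hbd (h hb1)
    obtain ⟨y, hy, -, hyb⟩ := exists_move hS hp1.symm hp2.symm (fun x hx => ⟨hp x hx, (hX x hx).1, (hX x hx).2.2.1⟩)
    exact ⟨y, hy, hyb⟩
  obtain ⟨g, hg, hg1⟩ := hfirst
  have hgb : ∀ x ∈ X, x • g • b₂ = g • b₂ := fun x hx => by
    rw [← mul_smul, Subgroup.mem_centralizer_iff.1 hg x hx, mul_smul, (hX x hx).2.1]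
  obtain ⟨y, hy, hy1, hy2⟩ := exists_move hS (p := c₁) (b := g • b₂) (c := c₂)
    (fun h => hb ((MulAction.injective g) (hg1.trans h.symm))) hc.symm
    (fun x hx => ⟨(hX x hx).2.2.1, hgb x hx, (hX x hx).2.2.2⟩)
  exact ⟨y * g, mul_mem hy hg, by rw [mul_smul, hg1, hy1], by rw [mul_smul, hy2]⟩

theorem exists_swap {X : Set G} (hX : X ⊆ ((D : Subgroup G) : Set G))
    (h3 : ∃ b c d : Ω, b ≠ c ∧ b ≠ d ∧ c ≠ d ∧ ∀ x ∈ X, x • b = b ∧ x • c = c ∧ x • d = d) :
    ∃ w ∈ Subgroup.centralizer X, w * w = 1 ∧ w • a = t • a ∧ w • t • a = a := by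
  obtain ⟨g, hg, hga, hgt⟩ := centralizer_two_trans hS h3 (b₁ := a) (b₂ := t • a) (c₁ := t • a) (c₂ := a)
    (fun x hx => ⟨(Subgroup.mem_inf.1 (hX hx)).1, (Subgroup.mem_inf.1 (hX hx)).2, (Subgroup.mem_inf.1 (hX hx)).2,
      (Subgroup.mem_inf.1 (hX hx)).1⟩) (ne_base hS).symm (ne_base hS)
  obtain ⟨k, m, hm, hord⟩ := Nat.exists_eq_two_pow_mul_odd (orderOf_pos g).ne'
  have hpow : ∀ n : ℕ, g ^ (2 * n) • a = a ∧ g ^ (2 * n) • t • a = t • a := by
    intro n
    induction n with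
    | zero => simp
    | succ n ih =>
      rw [show 2 * (n + 1) = 2 + 2 * n by ring, pow_add, pow_two]
      simp [mul_smul, ih.1, ih.2, hga, hgt]
  obtain ⟨j, hj⟩ := hm
  refine ⟨g ^ m, pow_mem hg m, ?_, ?_, ?_⟩
  · have hmem : g ^ m * g ^ m ∈ D := by
      rw [← pow_add, ← two_mul]
      exact Subgroup.mem_inf.2 ⟨(hpow m).1, (hpow m).2⟩
    have h2 : (g ^ m * g ^ m) ^ 2 ^ k = 1 := by
      rw [← pow_add, ← pow_mul, show (m + m) * 2 ^ k = (2 ^ k * m) * 2 by ring, ← hord, pow_mul, pow_orderOf_eq_one, one_pow]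
    have hco : Nat.Coprime (orderOf (g ^ m * g ^ m)) (orderOf (g ^ m * g ^ m)) :=
      Nat.Coprime.coprime_dvd_left (orderOf_dvd_of_pow_eq_one h2)
        (Nat.Coprime.coprime_dvd_right (Subgroup.orderOf_dvd_natCard (D : Subgroup G) hmem)
          (Nat.Coprime.pow_left k (Nat.coprime_two_left.2 hS.odd_card)))
    exact orderOf_eq_one_iff.1 (Nat.coprime_self _ |>.1 hco)
  · rw [hj, pow_succ, mul_smul, hga, (hpow j).2]
  · rw [hj, pow_succ, mul_smul, hgt, (hpow j).1]

end CfsgLib.RankOneSetup
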